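import Cfsg.Agent.H497.Stein.Eng
import Cfsg.Agent.H235.TitsRow
import Cfsg.Agent.H933.TitsRadThree
import Cfsg.Agent.BpSpor.Row.Tits

/-!
# S4114: the row of the Tits group (helper230)

One class of elements of order 3 and one class of elements of order 5.
-/

set_option autoImplicit false

namespace Cfsg.Agent.H230.Ccp.Tits

open Subgroup Cfsg Cfsg.Agent.H520 Cfsg.Agent.H497.Stein

universe u

/-- **S4114, the row of the Tits group.** -/
theorem row_Tits {G : Type u} [Group G] [Finite G] (h : Cfsg.Lie.IsoTits G) : Cfsg.Agent.H520.Row G := by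
  have D := BpSpor.Row.dat_tits h
  have F := H235.TitsRow.facts h
  refine row_of_dat D (l := [(2, 11), (3, 3), (5, 2), (13, 1)])
    (by decide +kernel) (by norm_num) fun x hx hx2 hx3 => ?_
  simp only [List.mem_cons, List.not_mem_nil, or_false] at hx
  rcases hx with rfl | rfl | rfl | rfl
  · exact absurd rfl hx3
  · obtain ⟨t, v, -, -, -, -, h5⟩ := H933.TitsRadThree.prop3_iso h
    exact moved_of_one Nat.prime_three (by norm_num) fun x y hx hy => (h5 x hx).trans (h5 y hy).symm
  · exact moved_of_one (by norm_num) (by norm_num) F.one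
  · exact absurd hx2 (by norm_num)

theorem row_tits {G : Type u} [Group G] [Finite G] (h : Cfsg.Lie.IsoTits G) : Cfsg.Agent.H520.Row G := row_Tits h

end Cfsg.Agent.H230.Ccp.Tits
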